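import Mathlib
import Cfsg.Agent.Std.WAct

/-!
# The fusion data of a Sylow 2-subgroup of `McL`
-/

set_option autoImplicit false
set_option linter.unusedSectionVars false

namespace Cfsg.Agent.NML

open Cfsg.Agent.Std.W Cfsg.Agent.Loc.Mss Subgroup

universe u

/-- A copy of `T0` with elements inducing the fusion of the normaliser `2^4 : A₇` of `E`. -/
structure Lx0 (G : Type u) [Group G] where
  ι : T0 →* G
  (r1 r2 hE : G)
  inj : Function.Injective ι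
  act1 : ∀ p ∈ J0, r1 * ι p * r1⁻¹ = ι (rho 1 om p)
  act2 : ∀ p ∈ J0, r2 * ι p * r2⁻¹ = ι (rho om 1 p)
  actE : ∀ p ∈ E0, hE * ι p * hE⁻¹ = ι (aE true p)

namespace Lx0

variable {G : Type u} [Group G] (s : Lx0 G)

/-- The 2-subgroup. -/
def T : Subgroup G := s.ι.range
/-- The first `2^4`. -/
def E : Subgroup G := E0.map s.ι
/-- The second `2^4`. -/
def F : Subgroup G := F0.map s.ι
/-- `E ⊓ F`. -/
def Z : Subgroup G := Z0.map s.ι
/-- `E ⊔ F`. -/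
def J : Subgroup G := J0.map s.ι
/-- The central involution. -/
def z : G := s.ι (w 1)
/-- The normaliser of `J`. -/
def P : Subgroup G := s.T ⊔ zpowers s.r1 ⊔ zpowers s.r2
/-- The normaliser of `E`. -/
def NE : Subgroup G := s.P ⊔ zpowers s.hE

theorem ιT (p : T0) : s.ι p ∈ s.T := ⟨p, rfl⟩
theorem pgT : IsPGroup 2 s.T := by
  rw [T, MonoidHom.range_eq_map]; exact (Std.W.pg.to_subgroup ⊤).map s.ι
theorem ι_eq {p q : T0} : s.ι p = s.ι q ↔ p = q := s.inj.eq_iff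
theorem ι_eq_one {p : T0} : s.ι p = 1 ↔ p = 1 := map_eq_one_iff _ s.inj
theorem ι_mem {A : Subgroup T0} {p : T0} : s.ι p ∈ A.map s.ι ↔ p ∈ A := mem_map_iff_mem s.inj
theorem ι_E {p : T0} : s.ι p ∈ s.E ↔ p ∈ E0 := s.ι_mem
theorem ι_F {p : T0} : s.ι p ∈ s.F ↔ p ∈ F0 := s.ι_mem
theorem ι_Z {p : T0} : s.ι p ∈ s.Z ↔ p ∈ Z0 := s.ι_mem
theorem ι_J {p : T0} : s.ι p ∈ s.J ↔ p ∈ J0 := s.ι_mem
theorem mem_T {g : G} : g ∈ s.T ↔ ∃ p, s.ι p = g := Iff.rfl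
theorem mem_E {g : G} : g ∈ s.E ↔ ∃ p ∈ E0, s.ι p = g := Iff.rfl
theorem mem_F {g : G} : g ∈ s.F ↔ ∃ p ∈ F0, s.ι p = g := Iff.rfl
theorem mem_Z {g : G} : g ∈ s.Z ↔ ∃ p ∈ Z0, s.ι p = g := Iff.rfl
theorem mem_J {g : G} : g ∈ s.J ↔ ∃ p ∈ J0, s.ι p = g := Iff.rfl
theorem card_map (A : Subgroup T0) : Nat.card (A.map s.ι) = Nat.card A := card_map_of_injective s.inj
theorem card_T : Nat.card s.T = 128 := (Nat.card_congr (MonoidHom.ofInjective s.inj).toEquiv).symm.trans T0.card_eq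
theorem card_E : Nat.card s.E = 16 := (s.card_map _).trans card_E0
theorem card_F : Nat.card s.F = 16 := (s.card_map _).trans card_F0
theorem card_Z : Nat.card s.Z = 4 := (s.card_map _).trans card_Z0
theorem card_J : Nat.card s.J = 64 := (s.card_map _).trans card_J0
theorem E_le_T : s.E ≤ s.T := map_le_range _ _
theorem F_le_T : s.F ≤ s.T := map_le_range _ _
theorem J_le_T : s.J ≤ s.T := map_le_range _ _
theorem E_le_J : s.E ≤ s.J := map_mono E0_le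
theorem F_le_J : s.F ≤ s.J := map_mono F0_le
theorem Z_le_E : s.Z ≤ s.E := map_mono Z0_leE
theorem Z_le_F : s.Z ≤ s.F := map_mono Z0_leF
theorem E_inf_F : s.E ⊓ s.F = s.Z := (map_inf _ _ _ s.inj).symm
theorem E_ne_F : s.E ≠ s.F := fun e => Std.W.E_ne_F (map_injective s.inj e)
theorem E_ne_bot : s.E ≠ ⊥ := fun e => by simpa [e] using s.card_E
theorem z_Z : s.z ∈ s.Z := s.ι_Z.2 (w_mem 1)
theorem z_E : s.z ∈ s.E := s.Z_le_E s.z_Z
theorem z_F : s.z ∈ s.F := s.Z_le_F s.z_Z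
theorem z_ne : s.z ≠ 1 := mt s.ι_eq_one.1 Std.W.z_ne
theorem z_sq : s.z * s.z = 1 := by rw [z, ← map_mul, Std.W.z_sq, map_one]
theorem z_comm (p : T0) : s.z * s.ι p = s.ι p * s.z := by rw [z, ← map_mul, comm_z, map_mul]
theorem sq_E {g : G} (h : g ∈ s.E) : g * g = 1 := by
  obtain ⟨p, hp, rfl⟩ := h
  rw [← map_mul, Std.W.sq_E p hp, map_one]
theorem comm_E {g g' : G} (h : g ∈ s.E) (h' : g' ∈ s.E) : g * g' = g' * g := by
  obtain ⟨p, hp, rfl⟩ := h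
  obtain ⟨q, hq, rfl⟩ := h'
  rw [← map_mul, Std.W.comm_E p hp q hq, map_mul]
theorem sq_F {g : G} (h : g ∈ s.F) : g * g = 1 := by
  obtain ⟨p, hp, rfl⟩ := h
  rw [← map_mul, Std.W.sq_F p hp, map_one]
theorem comm_F {g g' : G} (h : g ∈ s.F) (h' : g' ∈ s.F) : g * g' = g' * g := by
  obtain ⟨p, hp, rfl⟩ := h
  obtain ⟨q, hq, rfl⟩ := h'
  rw [← map_mul, Std.W.comm_F p hp q hq, map_mul]
theorem ι_conj (p q : T0) : s.ι p * s.ι q * (s.ι p)⁻¹ = s.ι (p * q * p⁻¹) := by simp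

theorem T_le_P : s.T ≤ s.P := le_sup_left.trans le_sup_left
theorem ιP (p : T0) : s.ι p ∈ s.P := s.T_le_P (s.ιT p)
theorem r1P : s.r1 ∈ s.P := mem_sup_left (mem_sup_right (mem_zpowers _))
theorem r2P : s.r2 ∈ s.P := mem_sup_right (mem_zpowers _)
theorem P_le_NE : s.P ≤ s.NE := le_sup_left
theorem hE_mem : s.hE ∈ s.NE := mem_sup_right (mem_zpowers _)
theorem P_le {S : Subgroup G} (h : ∀ p, s.ι p ∈ S) (h1 : s.r1 ∈ S) (h2 : s.r2 ∈ S) : s.P ≤ S :=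
  sup_le (sup_le (by rintro _ ⟨p, rfl⟩; exact h p) (zpowers_le.2 h1)) (zpowers_le.2 h2)
theorem NE_le {S : Subgroup G} (h : s.P ≤ S) (h1 : s.hE ∈ S) : s.NE ≤ S := sup_le h (zpowers_le.2 h1)
theorem T_le_of {S : Subgroup G} (h1 : s.ι (x om) ∈ S) (h2 : s.ι (y om) ∈ S) (h3 : s.ι fi ∈ S) (p : T0) : s.ι p ∈ S :=
  (eq_top_of (S := S.comap s.ι) h1 h2 h3 ▸ mem_top p : p ∈ S.comap s.ι)

/-- The letters. -/
def ltr : ℕ → G
  | 0 => s.ι (y 1)
  | 1 => s.ι (y om)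
  | 2 => s.ι fi
  | 3 => s.r1
  | 4 => s.r2
  | _ => s.hE

/-- The value of a word. -/
def wd (l : List ℕ) : G := (l.map s.ltr).prod

theorem wd_nil : s.wd [] = 1 := rfl
theorem wd_cons (a : ℕ) (l : List ℕ) : s.wd (a :: l) = s.ltr a * s.wd l := List.prod_cons
theorem wd_append (l l' : List ℕ) : s.wd (l ++ l') = s.wd l * s.wd l' := by simp [wd]

theorem wd_mem (l : List ℕ) : s.wd l ∈ s.NE := by
  induction l with
  | nil => exact one_mem _
  | cons a l ih =>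
    refine s.wd_cons a l ▸ mul_mem ?_ ih
    match a with
    | 0 | 1 | 2 => exact s.P_le_NE (s.ιP _)
    | 3 => exact s.P_le_NE s.r1P
    | 4 => exact s.P_le_NE s.r2P
    | _ + 5 => exact s.hE_mem

theorem wd_act (l : List ℕ) {p : T0} (hp : p ∈ E0) : s.wd l * s.ι p * (s.wd l)⁻¹ = s.ι (ev true l p) := by
  induction l with
  | nil => exact (mul_inv_eq_iff_eq_mul.2 ((one_mul _).trans (mul_one _).symm) : 1 * s.ι p * 1⁻¹ = s.ι p)
  | cons a l ih =>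
    have h := ev_mem true l hp
    calc _ = s.ltr a * (s.wd l * s.ι p * (s.wd l)⁻¹) * (s.ltr a)⁻¹ := by rw [wd_cons]; group
      _ = _ := by
        rw [ih]
        match a with
        | 0 | 1 | 2 => exact s.ι_conj _ _
        | 3 => exact s.act1 _ (E0_le h)
        | 4 => exact s.act2 _ (E0_le h)
        | _ + 5 => exact s.actE _ h

/-- Two words with the same action on `E`. -/
theorem wd_cent {l l' : List ℕ} (h : ∀ p ∈ E0, ev true l p = ev true l' p) :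
    ∀ p ∈ E0, (s.wd l')⁻¹ * s.wd l * s.ι p = s.ι p * ((s.wd l')⁻¹ * s.wd l) := fun p hp => by
  calc _ = (s.wd l')⁻¹ * (s.wd l * s.ι p * (s.wd l)⁻¹) * s.wd l := by group
    _ = _ := by rw [s.wd_act l hp, h p hp, ← s.wd_act l' hp]; group

theorem transE {p : T0} (hp : p ∈ E0) (h1 : p ≠ 1) : ∃ n ∈ s.NE, n * s.ι p * n⁻¹ = s.z := by
  obtain ⟨l, -, e⟩ := ev_trans true p hp h1
  exact ⟨_, s.wd_mem l, by rw [s.wd_act l hp, e, z]⟩

variable [Finite G]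

theorem norm_of {A : Subgroup T0} {g : G} (h : ∀ p ∈ A, ∃ q ∈ A, g * s.ι p * g⁻¹ = s.ι q) : g ∈ 𝐍[A.map s.ι] :=
  mem_norm_of_cj_le (cj_le_iff.2 (by
    rintro _ ⟨p, hp, rfl⟩
    obtain ⟨q, hq, e⟩ := h p hp
    exact ⟨q, hq, e.symm⟩))

theorem P_norm {A : Subgroup T0} [A.Normal] (hA : A ≤ J0) (h1 : ∀ p ∈ A, rho 1 om p ∈ A)
    (h2 : ∀ p ∈ A, rho om 1 p ∈ A) : s.P ≤ 𝐍[A.map s.ι] :=
  s.P_le (fun q => s.norm_of fun p hp => ⟨_, Normal.conj_mem inferInstance p hp q, s.ι_conj q p⟩)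
    (s.norm_of fun p hp => ⟨_, h1 p hp, s.act1 p (hA hp)⟩) (s.norm_of fun p hp => ⟨_, h2 p hp, s.act2 p (hA hp)⟩)

theorem P_norm_E : s.P ≤ 𝐍[s.E] := s.P_norm E0_le rho1_E rho2_E
theorem P_norm_F : s.P ≤ 𝐍[s.F] := s.P_norm F0_le rho1_F rho2_F
theorem P_norm_J : s.P ≤ 𝐍[s.J] := s.P_norm le_rfl rho1_J rho2_J
theorem P_norm_Z : s.P ≤ 𝐍[s.Z] := s.E_inf_F ▸ norm_inf s.P_norm_E s.P_norm_F
theorem NE_norm : s.NE ≤ 𝐍[s.E] := s.NE_le s.P_norm_E (s.norm_of fun p hp => ⟨_, aE_E _ p hp, s.actE p hp⟩)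
theorem pull {A : Subgroup G} (hA : A ≤ s.T) : (A.comap s.ι).map s.ι = A := map_comap_eq_self hA

theorem pull_sq {A : Subgroup G} (h : ∀ g ∈ A, g * g = 1) : ∀ p ∈ A.comap s.ι, p * p = 1 := fun p hp =>
  s.ι_eq_one.1 (by rw [map_mul, h _ hp])

/-- The elementary abelian subgroups of order at least 16 of `T`. -/
theorem el16 {A : Subgroup G} (hA : A ≤ s.T) (h : ∀ g ∈ A, g * g = 1) (hc : 16 ≤ Nat.card A) : A = s.E ∨ A = s.F := by
  rw [← s.pull hA, card_map] at hc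
  exact (Std.W.el16 (s.pull_sq h) hc).imp (fun e => by rw [← s.pull hA, e, E]) fun e => by rw [← s.pull hA, e, F]

theorem card_le_sixteen {A : Subgroup G} (hA : A ≤ s.T) (h : ∀ g ∈ A, g * g = 1) : Nat.card A ≤ 16 := by
  rw [← s.pull hA, card_map]
  exact Std.W.card_le_sixteen (s.pull_sq h)

theorem card_le_four {A : Subgroup G} (hA : A ≤ s.T) (h : ∀ g ∈ A, g * g = 1) (hZ : A ⊓ s.J ≤ s.Z) :
    Nat.card A ≤ 4 := by
  rw [← s.pull hA, card_map]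
  exact Std.W.card_le_four (s.pull_sq h) fun p hp hJ => s.ι_Z.1 (hZ ⟨hp, s.ι_J.2 hJ⟩)

theorem aut_T {g : G} (hg : g ∈ 𝐍[s.T]) : ∃ f : T0 ≃* T0, ∀ p, g * s.ι p * g⁻¹ = s.ι (f p) :=
  exists_aut s.inj s.inj (cj_of_norm hg)

/-- An element normalising `T` normalises or interchanges `E` and `F`. -/
theorem norm_T_cases {g : G} (hg : g ∈ 𝐍[s.T]) :
    (g ∈ 𝐍[s.E] ∧ g ∈ 𝐍[s.F]) ∨ (cj(g, s.E) = s.F ∧ cj(g, s.F) = s.E) := by
  obtain ⟨f, hf⟩ := s.aut_T hg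
  obtain ⟨α, hα⟩ := aut_cases f
  have k : ∀ ε, cj(g, (V ε).map s.ι) = (V (xor ε α)).map s.ι := fun ε =>
    eq_of_le_of_card_ge (cj_le_iff.2 (by
      rintro _ ⟨p, hp, rfl⟩
      exact ⟨_, (hα ε p).2 hp, (hf p).symm⟩)) (by rw [card_cj, card_map, card_map, card_V, card_V])
  cases α
  · exact .inl ⟨cj_eq_iff.1 (k true), cj_eq_iff.1 (k false)⟩
  · exact .inr ⟨k true, k false⟩

/-- Every `P`-endomorphism of `E` is trivial or the identity (hypothesis of `Wr.Dbl.avg`). -/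
theorem endo_E (ε : G → G) (h0 : ∀ v ∈ s.E, ε v ∈ s.E) (h1 : ∀ a ∈ s.E, ∀ b ∈ s.E, ε (a * b) = ε a * ε b)
    (h2 : ∀ p ∈ s.P, ∀ v ∈ s.E, ε (p * v * p⁻¹) = p * ε v * p⁻¹) : (∀ v ∈ s.E, ε v = 1) ∨ ∀ v ∈ s.E, ε v = v := by
  have hx := s.ι_E.2 (x_mem 1)
  obtain ⟨a, ha, ea⟩ := h0 _ hx
  have e1 := h2 _ s.r1P _ hx
  have e2 := h2 _ (s.ιP fi) _ hx
  rw [s.act1 _ (E0_le (x_mem 1)), (by decide +kernel : rho 1 om (x 1) = x 1), ← ea, s.act1 _ (E0_le ha), ι_eq] at e1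
  rw [ι_conj, (by decide +kernel : fi * x 1 * fi⁻¹ = x 1), ← ea, ι_conj, ι_eq] at e2
  have one : ε 1 = 1 := by simpa using h1 1 (one_mem _) 1 (one_mem _)
  have key : ∀ φ : T0 →* T0, (∀ p ∈ E0, rho om 1 (φ p) = φ (rho om 1 p)) →
      (∀ q p, q * φ p * q⁻¹ = φ (q * p * q⁻¹)) → a = φ (x 1) → ∀ p ∈ E0, ε (s.ι p) = s.ι (φ p) := fun φ k1 k2 k3 => by
    have m : ∀ p ∈ E0, ∀ q ∈ E0, ε (s.ι p) = s.ι (φ p) → ε (s.ι q) = s.ι (φ q) →
        ε (s.ι (p * q)) = s.ι (φ (p * q)) := fun p hp q hq a b => by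
      rw [map_mul, h1 _ (s.ι_E.2 hp) _ (s.ι_E.2 hq), a, b, map_mul, map_mul]
    have r : ∀ p ∈ E0, φ p ∈ J0 → ε (s.ι p) = s.ι (φ p) → ε (s.ι (rho om 1 p)) = s.ι (φ (rho om 1 p)) :=
      fun p hp hp' a => by rw [← s.act2 p (E0_le hp), h2 _ s.r2P _ (s.ι_E.2 hp), a, s.act2 _ hp', k1 p hp]
    have c : ∀ q, ∀ p ∈ E0, ε (s.ι p) = s.ι (φ p) → ε (s.ι (q * p * q⁻¹)) = s.ι (φ (q * p * q⁻¹)) :=
      fun q p hp a => by rw [← ι_conj, h2 _ (s.ιP q) _ (s.ι_E.2 hp), a, ι_conj, k2]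
    have b1 : ε (s.ι (x 1)) = s.ι (φ (x 1)) := k3 ▸ ea.symm
    have b2 := r _ (x_mem 1) (k3 ▸ E0_le ha) b1
    have g : ∀ p ∈ E0, p = 1 ∨ (∃ q, p = q * x 1 * q⁻¹) ∨ (∃ q, p = q * rho om 1 (x 1) * q⁻¹) ∨
        ∃ q, p = x 1 * (q * x 1 * q⁻¹) := by decide +kernel
    intro p hp
    rcases g p hp with rfl | ⟨q, rfl⟩ | ⟨q, rfl⟩ | ⟨q, rfl⟩
    · simpa using one
    · exact c q _ (x_mem 1) b1
    · exact c q _ (rho2_E _ (x_mem 1)) b2
    · exact m _ (x_mem 1) _ (Normal.conj_mem inferInstance _ (x_mem 1) q) b1 (c q _ (x_mem 1) b1)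
  rcases (by decide +kernel : ∀ a ∈ E0, a = rho 1 om a → a = fi * a * fi⁻¹ → a = 1 ∨ a = x 1) a ha e1 e2 with e | e
  · exact .inl (by
      rintro _ ⟨p, hp, rfl⟩
      simpa using key 1 (fun _ _ => by simp only [MonoidHom.one_apply]; decide +kernel) (by simp) e p hp)
  · exact .inr (by
      rintro _ ⟨p, hp, rfl⟩
      exact key (MonoidHom.id _) (fun _ _ => rfl) (fun _ _ => rfl) e p hp)

end Lx0

/-- A copy of `T0` with elements inducing the fusion of `McL`; the relations hold up to elements of odd order. -/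
structure Lx (G : Type u) [Group G] extends Lx0 G where
  hF : G
  actF : ∀ p ∈ F0, hF * ι p * hF⁻¹ = ι (aF true p)
  c1 : Odd (orderOf (r1 ^ 3))
  c2 : Odd (orderOf (r2 ^ 3))
  c12 : Odd (orderOf (r1 * r2 * r1⁻¹ * r2⁻¹))
  f1 : Odd (orderOf (ι fi * r1 * ι fi * r1))
  f2 : Odd (orderOf (ι fi * r2 * ι fi * r2))

namespace Lx

variable {G : Type u} [Group G] (s : Lx G)

/-- The normaliser of `F`. -/
def NF : Subgroup G := s.P ⊔ zpowers s.hF

theorem range_gam : (s.ι.comp gam).range = s.ι.range := by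
  rw [MonoidHom.range_comp, MonoidHom.range_eq_top.2 gam_surj, ← MonoidHom.range_eq_map]

/-- Interchange `E` and `F`. -/
def symm : Lx G where
  ι := s.ι.comp gam
  r1 := s.r2
  r2 := s.r1
  hE := s.hF
  hF := s.hE
  inj := s.inj.comp gam_inj
  act1 p hp := (s.act2 _ ((gam_J p).2 hp)).trans (congrArg s.ι (gam_rho1 p).symm)
  act2 p hp := (s.act1 _ ((gam_J p).2 hp)).trans (congrArg s.ι (gam_rho2 p).symm)
  actE p hp := (s.actF _ ((gam_F p).2 hp)).trans (congrArg s.ι (gam_aE _ p hp).symm)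
  actF p hp := (s.actE _ ((gam_E p).2 hp)).trans (congrArg s.ι (gam_aF _ p hp).symm)
  c1 := s.c2
  c2 := s.c1
  c12 := by
    have := s.c12
    rw [← orderOf_inv] at this
    simpa [mul_assoc] using this
  f1 := s.f2
  f2 := s.f1

/-- The image under a homomorphism that is injective on `T`. -/
def map {G' : Type*} [Group G'] [Finite G] (f : G →* G') (hf : Function.Injective (f.comp s.ι)) : Lx G' where
  ι := f.comp s.ι
  r1 := f s.r1
  r2 := f s.r2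
  hE := f s.hE
  hF := f s.hF
  inj := hf
  act1 p hp := by simpa using congrArg f (s.act1 p hp)
  act2 p hp := by simpa using congrArg f (s.act2 p hp)
  actE p hp := by simpa using congrArg f (s.actE p hp)
  actF p hp := by simpa using congrArg f (s.actF p hp)
  c1 := by simpa using s.c1.of_dvd_nat (orderOf_map_dvd f _)
  c2 := by simpa using s.c2.of_dvd_nat (orderOf_map_dvd f _)
  c12 := by simpa using s.c12.of_dvd_nat (orderOf_map_dvd f _)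
  f1 := by simpa using s.f1.of_dvd_nat (orderOf_map_dvd f _)
  f2 := by simpa using s.f2.of_dvd_nat (orderOf_map_dvd f _)

theorem map_gam {A B : Subgroup T0} (h : ∀ p, gam p ∈ A ↔ p ∈ B) : A.map s.symm.ι = B.map s.ι := by
  ext g
  exact ⟨fun ⟨p, hp, e⟩ => ⟨gam p, (h _).1 ((gam_gam p).symm ▸ hp), e⟩,
    fun ⟨p, hp, e⟩ => ⟨gam p, (h p).2 hp, (congrArg s.ι (gam_gam p)).trans e⟩⟩

theorem symm_ι (p : T0) : s.symm.ι p = s.ι (gam p) := rfl
theorem symm_T : s.symm.T = s.T := s.range_gam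
theorem symm_E : s.symm.E = s.F := s.map_gam gam_E
theorem symm_F : s.symm.F = s.E := s.map_gam gam_F
theorem symm_Z : s.symm.Z = s.Z := s.map_gam gam_Z
theorem symm_J : s.symm.J = s.J := s.map_gam gam_J
theorem symm_z : s.symm.z = s.z := congrArg s.ι (gam_w 1)
theorem symm_P : s.symm.P = s.P := by rw [Lx0.P, symm_T, Lx0.P, sup_right_comm]; rfl
theorem symm_NE : s.symm.NE = s.NF := by rw [Lx0.NE, symm_P]; rfl
theorem symm_NF : s.symm.NF = s.NE := by rw [NF, symm_P]; rfl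

section Map

variable {G' : Type*} [Group G'] [Finite G] (f : G →* G') (hf : Function.Injective (f.comp s.ι))

theorem map_ι (p : T0) : (s.map f hf).ι p = f (s.ι p) := rfl
theorem map_z : (s.map f hf).z = f s.z := rfl
theorem map_T : (s.map f hf).T = s.T.map f := MonoidHom.range_comp _ _
theorem map_E : (s.map f hf).E = s.E.map f := (map_map _ _ _).symm
theorem map_F : (s.map f hf).F = s.F.map f := (map_map _ _ _).symm
theorem map_P : (s.map f hf).P = s.P.map f := by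
  rw [Lx0.P, Lx0.P, map_T, Subgroup.map_sup, Subgroup.map_sup, MonoidHom.map_zpowers, MonoidHom.map_zpowers]; rfl
theorem map_NE : (s.map f hf).NE = s.NE.map f := by
  rw [Lx0.NE, Lx0.NE, map_P, Subgroup.map_sup, MonoidHom.map_zpowers]; rfl
theorem map_NF : (s.map f hf).NF = s.NF.map f := by
  rw [NF, NF, map_P, Subgroup.map_sup, MonoidHom.map_zpowers]; rfl

end Map

theorem P_le_NF : s.P ≤ s.NF := le_sup_left
theorem hF_mem : s.hF ∈ s.NF := mem_sup_right (mem_zpowers _)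
theorem NF_le {S : Subgroup G} (h : s.P ≤ S) (h1 : s.hF ∈ S) : s.NF ≤ S := sup_le h (zpowers_le.2 h1)
theorem transF {p : T0} (hp : p ∈ F0) (h1 : p ≠ 1) : ∃ n ∈ s.NF, n * s.ι p * n⁻¹ = s.z := by
  simpa only [symm_NE, symm_z, symm_ι, gam_gam] using
    s.symm.transE ((gam_E p).2 hp) fun e => h1 (gam_inj (e.trans (map_one _).symm))

variable [Finite G]

theorem NF_norm : s.NF ≤ 𝐍[s.F] := s.NF_le s.P_norm_F (s.norm_of fun p hp => ⟨_, aF_F _ p hp, s.actF p hp⟩)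

end Lx

end Cfsg.Agent.NML
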