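import Mathlib
import Cfsg.Agent.Std.WMcL

/-!
# The structure `Mod` for `McL`, with the type of the second local subgroup
-/

set_option autoImplicit false
set_option maxRecDepth 100000

namespace Cfsg.Agent.NML

open Cfsg.Agent.Std.W Cfsg.Agent.Std.W.WM Cfsg.Agent.Loc.Mss Cfsg.Agent.Wr Cfsg.Agent.Spor Subgroup

section

variable {G α : Type} [Group G] [MulAction G α] {e : ℕ → α} {n : ℕ} {T S U : ℕ → ℕ → ℕ} {k g u : ℕ → G} {M c : ℕ}
  {inv : ℕ → ℕ} {Bs : List ℕ}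

theorem mod_of_eps (h : OutModel e n T S k g M inv Bs c) (hu : Tabs e n U u 11) {ε : Bool} (c1 : C1 U Bs)
    (c2 : C2 U Bs ε) (c3 : C3 U Bs) {m : ℕ} (hc : c = 128 * m) (hm : ¬ 2 ∣ m)
    (cE : ∀ a : G, (∀ j < 4, a * u (sE j) = u (sE j) * a) → a ∈ genLt (fun j => u (sE j)) 4)
    (cF : ∀ a : G, (∀ j < 4, a * u (sF j) = u (sF j) * a) → a ∈ genLt (fun j => u (sF j)) 4)
    {bk : ℕ → List ℕ} (hg : allLt 3 (fun j => band (lettersLt 11 (bk j)) (agreeF (S j) (traceP U (bk j)) Bs)) = true)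
    (ho : Nat.card (Out G) = 1 ∨ (Nat.card (Out G) = 2 ∧ ∃ τ : G ≃* G, (∀ a, τ (τ a) = a) ∧
      ∀ p ∈ E0, ∃ q ∈ F0, τ (evalW u (wT p)) = evalW u (wT q))) : ∃ m : Std.W.Mod G, m.εF = ε := by
  have ev : ∀ {v v' : List ℕ}, Ag U Bs v v' → evalW u v = evalW u v' := fun hv =>
    hu.eq_of_base (h.base.mono le_top) h.sif.lt hv
  have ev2 : ∀ {a b v : List ℕ}, Ag U Bs (a ++ b) v → evalW u a * evalW u b = evalW u v := fun hv =>
    (evalW_append _ _ _).symm.trans (ev hv)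
  have ev3 : ∀ {a b a' b' : List ℕ}, Ag U Bs (a ++ b) (a' ++ b') → evalW u a * evalW u b = evalW u a' * evalW u b' :=
    fun hv => (ev2 hv).trans (evalW_append _ _ _)
  have e1 : ∀ i, evalW u [i] = u i := fun i => by simp
  obtain ⟨d6, d7, d8, d78, d67, d68⟩ := c3
  have d6 := ev d6
  have d7 := ev d7
  have d8 := ev d8
  have d78 := ev d78
  have d67 := ev d67
  have d68 := ev d68
  simp only [evalW_cons, evalW_nil, mul_one] at d6 d7 d8 d78 d67 d68
  obtain ⟨ι, i1, i2, i3, i4⟩ := exists_hom (fun a => evalW u (kw 0 a)) (fun a => evalW u (kw 2 a))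
    (fun a => evalW u (kw 4 a)) (u 6) (fun a b => ev2 (c1 a b).1.1) (fun a b => ev2 (c1 a b).1.2.1)
    (fun a b => ev2 (c1 a b).1.2.2) (fun a b => ev3 (c1 a b).2.1.1) (fun a b => ev3 (c1 a b).2.1.2.1)
    (fun a b => (ev3 (c1 a b).2.1.2.2).trans (by rw [evalW_append])) (fun a => e1 6 ▸ ev3 (c1 a a).2.2.1)
    (fun a => e1 6 ▸ ev3 (c1 a a).2.2.2.1) (fun a => e1 6 ▸ ev3 (c1 a a).2.2.2.2) d6
  have hι : ∀ p, ι p = evalW u (wT p) := fun p => by
    conv_lhs => rw [dec_T p]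
    rw [map_mul, map_mul, map_mul, i1, i2, i3, wT, evalW_append, evalW_append, evalW_append]
    cases p.e
    · simp
    · rw [e1, ← i4]
  have hinj : Function.Injective ι := (injective_iff_map_eq_one ι).2 fun p hp => (c2 p).1 (by
    rw [hι] at hp
    exact (band_iff _ _).2 ⟨lt_wT p, (band_iff _ _).2 ⟨rfl,
      agreeF_of_eq h.sif.inj h.sif.lt (hu.evalW (lt_wT p)) (hu.evalW (w := []) rfl) hp⟩⟩)
  have act : ∀ {i : ℕ} {p q : T0}, Ag U Bs ([i] ++ wT p) (wT q ++ [i]) → u i * ι p * (u i)⁻¹ = ι q := fun hv => by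
    have := ev3 hv
    rw [e1, ← hι, ← hι] at this
    rw [this, mul_inv_cancel_right]
  have u0 : u 0 = ι (x 1) := by rw [i1]; exact (e1 0).symm
  have u1 : u 1 = ι (x om) := by rw [i1]; exact (e1 1).symm
  have u2 : u 2 = ι (y 1) := by rw [i2]; exact (e1 2).symm
  have u3 : u 3 = ι (y om) := by rw [i2]; exact (e1 3).symm
  have u4 : u 4 = ι (w 1) := by rw [i3]; exact (e1 4).symm
  have u5 : u 5 = ι (w om) := by rw [i3]; exact (e1 5).symm
  have uE : ∀ j < 4, u (sE j) ∈ E0.map ι := fun j hj => by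
    interval_cases j
    exacts [⟨_, x_mem _, u0.symm⟩, ⟨_, x_mem _, u1.symm⟩, ⟨_, Z0_leE (w_mem _), u4.symm⟩,
      ⟨_, Z0_leE (w_mem _), u5.symm⟩]
  have uF : ∀ j < 4, u (sF j) ∈ F0.map ι := fun j hj => by
    interval_cases j
    exacts [⟨_, y_mem _, u2.symm⟩, ⟨_, y_mem _, u3.symm⟩, ⟨_, Z0_leF (w_mem _), u4.symm⟩,
      ⟨_, Z0_leF (w_mem _), u5.symm⟩]
  have hE : ∀ a : G, (∀ p ∈ E0, a * ι p = ι p * a) → ∃ p ∈ E0, ι p = a := fun a ha =>
    genLt_le uE (cE a fun j hj => by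
      obtain ⟨p, hp, h1⟩ := uE j hj
      exact h1 ▸ ha p hp)
  have hF : ∀ a : G, (∀ p ∈ F0, a * ι p = ι p * a) → ∃ p ∈ F0, ι p = a := fun a ha =>
    genLt_le uF (cF a fun j hj => by
      obtain ⟨p, hp, h1⟩ := uF j hj
      exact h1 ▸ ha p hp)
  have cen : ∀ a : G, (∀ b, b * a = a * b) → a = 1 := fun a ha => by
    obtain ⟨p, hp, rfl⟩ := hE a fun p _ => (ha _).symm
    have h1 : ∀ q, p * q = q * p := fun q => hinj (by rw [map_mul, map_mul, ha])
    rcases center_eq p (h1 _) (h1 _) (h1 _) with rfl | rfl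
    · exact map_one ι
    · have h2 := act ((c2 (w 1)).2.1 rfl).1
      rw [ha, mul_inv_cancel_right] at h2
      exact absurd (hinj h2) (by decide +kernel)
  have one : ∀ {a : G}, a = 1 → a ∈ 𝐂[(⊤ : Subgroup G)] := fun ha => ha ▸ one_mem _
  have hcard : Nat.card ι.range = 128 := (Nat.card_congr (MonoidHom.ofInjective hinj).toEquiv).symm.trans T0.card_eq
  let s : Lw G :=
    { L := ⊤, ι := ι, r1 := u 7, r2 := u 8, hE := u 9, hF := u 10, εE := true, εF := ε, inj := hinj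
      r1L := trivial, r2L := trivial, hEL := trivial, hFL := trivial
      syl := ⟨le_top, (MonoidHom.range_eq_map ι).symm ▸ (pg.to_subgroup ⊤).map ι, by
        have h1 := ι.range.card_mul_index
        rw [hcard, h.card, hc] at h1
        rw [relIndex_top_right, Nat.eq_of_mul_eq_mul_left (by norm_num) h1]
        exact hm⟩
      act1 := fun p hp => act ((c2 p).2.1 hp).1
      act2 := fun p hp => act ((c2 p).2.1 hp).2
      actE := fun p hp => act ((c2 p).2.2.1 hp)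
      actF := fun p hp => act ((c2 p).2.2.2 hp)
      c1 := one (by rw [← d7, pow_three])
      c2 := one (by rw [← d8, pow_three])
      c12 := one (by rw [d78]; group)
      f1 := one (by rw [i4, ← d67]; simp only [mul_assoc])
      f2 := one (by rw [i4, ← d68]; simp only [mul_assoc])
      cE := fun a _ ha => by
        obtain ⟨p, hp, rfl⟩ := hE a ha
        exact ⟨p, hp, one (by rw [← map_mul, sq_E p hp, map_one])⟩
      cF := fun a _ ha => by
        obtain ⟨p, hp, rfl⟩ := hF a ha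
        exact ⟨p, hp, one (by rw [← map_mul, sq_F p hp, map_one])⟩
      zodd := fun a _ ha => by
        rw [cen a fun b => mem_centralizer_iff.1 ha b trivial, orderOf_one]
        exact odd_one }
  refine ⟨⟨s, rfl, rfl, cen, ?_, ho.imp_right fun ⟨h1, τ, h2, h3⟩ => ⟨h1, τ, h2, 1, fun p hp => ?_⟩⟩, rfl⟩
  · have h1 : ∀ j < 11, u j ∈ s.NE ⊔ s.NF := fun j hj => by
      have h2 : ∀ p, ι p ∈ s.NE ⊔ s.NF := fun p => mem_sup_left (s.P_le_NE (s.ιP p))
      interval_cases j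
      exacts [u0 ▸ h2 _, u1 ▸ h2 _, u2 ▸ h2 _, u3 ▸ h2 _, u4 ▸ h2 _, u5 ▸ h2 _, i4 ▸ h2 _,
        mem_sup_left (s.P_le_NE s.r1P), mem_sup_left (s.P_le_NE s.r2P), mem_sup_left s.hE_mem, mem_sup_right s.hF_mem]
    refine top_unique (h.gen ▸ genLt_le fun j hj => ?_)
    obtain ⟨h2, h3⟩ := (band_iff _ _).1 ((allLt_iff _ _).1 hg j hj)
    rw [eq_of_agreeF h.base h.sif.lt (h.tabs j hj) (hu.evalW h2) h3]
    exact genLt_le h1 (evalW_mem_genLt _ h2)
  · obtain ⟨q, hq, h4⟩ := h3 p hp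
    exact ⟨q, hq, by rw [one_mul, inv_one, mul_one]; exact (congrArg τ (hι p)).trans (h4.trans (hι q).symm)⟩

end

section

open Cfsg.Agent.Spor.OutC Cfsg.Agent.Std.W.WMcL

theorem mod_eps {A α : Type} [Group A] [MulAction A α] {e : ℕ → α} {y : ℕ → A} (he : Set.InjOn e (Set.Iio 275))
    (h0 : Tabs e 275 mcl_S y 3) (hc : Nat.card A = 898128000) : ∃ m : Std.W.Mod A, m.εF = true := by
  have h := mcl_model he h0 hc
  have hu := h.sif.tabs.words ws_ok
  have hZ : lettersLt 13 mcl_Z' = true := by decide +kernel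
  obtain ⟨τ, h1, h2⟩ := WM.exists_aut h
    (tabs_tri ((h0 0 (by decide)).iterF _) (h0 1 (by decide)) ((mcl_tabs h0).evalW hZ)) mcl_p_0 (by decide +kernel)
  refine mod_of_eps h hu c1 c2 c3 (m := 7016625) (by norm_num) (by norm_num)
    (cent_le h (hu.comp (ι := sE) (by decide +kernel)) (l := lE) (L := LE) (hw := hE)
      ⟨_, mcl_sl0 he h0 hc, _, mcl_sl1 he h0 hc, _, mcl_sl2 he h0 hc, _, mcl_sl3 he h0 hc, _, mcl_sl4 he h0 hc, rfl⟩
      (by decide +kernel) (allRange_zero sE_ok))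
    (cent_le h (hu.comp (ι := sF) (by decide +kernel)) (l := lF) (L := LF) (hw := hF)
      ⟨_, mcl_sl0 he h0 hc, _, mcl_sl1 he h0 hc, _, mcl_sl2 he h0 hc, _, mcl_sl3 he h0 hc, _, mcl_sl4 he h0 hc, rfl⟩
      (by decide +kernel) (allRange_zero sF_ok))
    bk_ok (.inr ⟨mcl_out he h0 hc, τ, h1, fun p hp => ?_⟩)
  obtain ⟨q, hq, h3⟩ := swap p hp
  exact ⟨q, hq, eq_of_agreeF h.base h.sif.lt (h2 _ _ (hu.evalW (lt_wT p))) (hu.evalW (lt_wT q)) h3⟩

end

open Cfsg.Agent.Spor.Leech Cfsg.Agent.Spor.LC in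
theorem mod_mcl : ∃ m : Std.W.Mod Cfsg.Spor.McL, m.εF = true :=
  @mod_eps Cfsg.Spor.McL _ _ (MulAction.compHom _ mclEquiv.symm.toMonoidHom) e275
    (fun l => mclEquiv (subL (St2 vU vA) (fun l => el (mclR l)) l)) e275_injOn
    (fun j hj i hi => ⟨(mcl_tabs0 j hj i hi).1, by
      have := (mcl_tabs0 j hj i hi).2
      rw [← mclEquiv.symm_apply_apply (subL (St2 vU vA) (fun l => el (mclR l)) j)] at this
      exact this⟩)
    ((Nat.card_congr mclEquiv.toEquiv).symm.trans card_McL)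

end Cfsg.Agent.NML
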